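import Mathlib

set_option autoImplicit false

/-!
Package statements for S0679 (non-solvable transitive groups of degree eleven).  Each package is
a `Prop`; a proof of a package is a theorem of that type (no hypotheses).
-/

namespace Cfsg.Agent.Lib.Helper98.S11

/-- Sharply `4`-transitive groups of permutations of eleven points. -/
def Sharp4 (H : Subgroup (Equiv.Perm (Fin 11))) : Prop :=
  MulAction.IsMultiplyPretransitive ↥H (Fin 11) 4 ∧
    ∀ x : Fin 4 ↪ Fin 11, MulAction.stabilizer ↥H x = ⊥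

/-- The conclusion for a group of permutations of eleven points. -/
def Good11 (H : Subgroup (Equiv.Perm (Fin 11))) : Prop :=
  Group.IsSolvable ↥H ∨ alternatingGroup (Fin 11) ≤ H ∨ Sharp4 H ∨
    Nonempty (↥H ≃* Matrix.ProjectiveSpecialLinearGroup (Fin 2) (ZMod 11))

/-- Count the `i < n` with `f i ≠ i`. -/
def cntB (f : ℕ → ℕ) : ℕ → ℕ
  | 0 => 0
  | n + 1 => Nat.add (cntB f n) (cond (Nat.beq (f n) n) 0 1)

/-- [TRANS11] Transport of the statement from `Fin 11` to any type with eleven elements. -/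
def PkgTrans11.{u} : Prop :=
  (∀ H : Subgroup (Equiv.Perm (Fin 11)), MulAction.IsPretransitive ↥H (Fin 11) →
      ¬ Group.IsSolvable ↥H → ¬ alternatingGroup (Fin 11) ≤ H →
      Sharp4 H ∨ Nonempty (↥H ≃* Matrix.ProjectiveSpecialLinearGroup (Fin 2) (ZMod 11))) →
  ∀ (α : Type u) [Fintype α] [DecidableEq α], Fintype.card α = 11 →
    ∀ (G : Subgroup (Equiv.Perm α)) [MulAction.IsPretransitive G α], ¬ Group.IsSolvable G →
      ¬ alternatingGroup α ≤ G →
      (MulAction.IsMultiplyPretransitive G α 4 ∧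
          ∀ x : Fin 4 ↪ α, MulAction.stabilizer G x = ⊥) ∨
        Nonempty (G ≃* Matrix.ProjectiveSpecialLinearGroup (Fin 2) (ZMod 11))

/-- [CONJ11] The conclusion is invariant under conjugation. -/
def PkgConj11 : Prop :=
  ∀ (H : Subgroup (Equiv.Perm (Fin 11))) (c : Equiv.Perm (Fin 11)),
    Good11 (H.comap (MulAut.conj c).toMonoidHom) → Good11 H

/-- [CYC11] A transitive group contains a conjugate of any element of order eleven. -/
def PkgCyc11 : Prop :=
  ∀ H : Subgroup (Equiv.Perm (Fin 11)), MulAction.IsPretransitive ↥H (Fin 11) →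
    ∀ g : Equiv.Perm (Fin 11), orderOf g = 11 → ∃ c : Equiv.Perm (Fin 11), c * g * c⁻¹ ∈ H

/-- [JORDAN11] A group containing an element of order eleven and a permutation moving exactly
three points contains the alternating group. -/
def PkgJordan11 : Prop :=
  ∀ (H : Subgroup (Equiv.Perm (Fin 11))) (g s : Equiv.Perm (Fin 11)), g ∈ H → s ∈ H →
    orderOf g = 11 → s.support.card = 3 → alternatingGroup (Fin 11) ≤ H

/-- [SOLV11] A group normalising the subgroup generated by one of its elements of order eleven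
is solvable. -/
def PkgSolv11 : Prop :=
  ∀ (H : Subgroup (Equiv.Perm (Fin 11))) (g : Equiv.Perm (Fin 11)), g ∈ H → orderOf g = 11 →
    (∀ h ∈ H, h * g * h⁻¹ ∈ Subgroup.zpowers g) → Group.IsSolvable ↥H

/-- [SHARP11] A group of order `7920 = 11 * 10 * 9 * 8` in which only the identity fixes the
points `0, 1, 2, 3` is sharply `4`-transitive. -/
def PkgSharp11 : Prop :=
  ∀ H : Subgroup (Equiv.Perm (Fin 11)), Nat.card ↥H = 7920 →
    (∀ h ∈ H, h 0 = 0 → h 1 = 1 → h 2 = 2 → h 3 = 3 → h = 1) → Sharp4 H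

/-- [L11] A simple group of order `660` is `PSL₂(11)`. -/
def PkgL11 : Prop :=
  ∀ (K : Type) [Group K] [Finite K] [IsSimpleGroup K], Nat.card K = 660 →
    Nonempty (K ≃* Matrix.ProjectiveSpecialLinearGroup (Fin 2) (ZMod 11))

/-- [SIMP11] A simplicity criterion for the group generated by `S`: every subgroup which meets
it nontrivially and is stable under conjugation by it contains `S`. -/
def PkgSimp11 : Prop :=
  ∀ (S : Set (Equiv.Perm (Fin 11))), (∃ g ∈ S, g ≠ 1) →
    (∀ N : Subgroup (Equiv.Perm (Fin 11)), (∃ x ∈ N, x ∈ Subgroup.closure S ∧ x ≠ 1) →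
      (∀ k ∈ Subgroup.closure S, ∀ n ∈ N, k * n * k⁻¹ ∈ N) → ∀ g ∈ S, g ∈ N) →
    IsSimpleGroup ↥(Subgroup.closure S)

/-- [NORM11] If the generators and their inverses conjugate `c` into the group it generates,
so does every element of the generated group. -/
def PkgNorm11 : Prop :=
  ∀ (S : Set (Equiv.Perm (Fin 11))) (c : Equiv.Perm (Fin 11)),
    (∀ s ∈ S, s * c * s⁻¹ ∈ Subgroup.zpowers c ∧ s⁻¹ * c * s ∈ Subgroup.zpowers c) →
    ∀ k ∈ Subgroup.closure S, k * c * k⁻¹ ∈ Subgroup.zpowers c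

/-- [POW11] A subgroup containing a nontrivial power of an element of order eleven contains the
element. -/
def PkgPow11 : Prop :=
  ∀ (H : Subgroup (Equiv.Perm (Fin 11))) (x : Equiv.Perm (Fin 11)) (i : ℤ), orderOf x = 11 →
    x ^ i ≠ 1 → x ^ i ∈ H → x ∈ H

/-- [COS11] A set of coset representatives closed under right multiplication by the rotation
and a transposition covers the symmetric group. -/
def PkgCos11 : Prop :=
  ∀ (K : Subgroup (Equiv.Perm (Fin 11))) (T : Set (Equiv.Perm (Fin 11))), (1 : Equiv.Perm (Fin 11)) ∈ T →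
    (∀ t ∈ T, ∀ s ∈ ({finRotate 11, Equiv.swap (0 : Fin 11) 1} : Set (Equiv.Perm (Fin 11))),
      ∃ κ ∈ K, ∃ t' ∈ T, t * s = κ * t') →
    ∀ y : Equiv.Perm (Fin 11), ∃ κ ∈ K, ∃ t ∈ T, y = κ * t

/-- [SUPP11] The number of points moved by a permutation, computed from its values. -/
def PkgSupp11 : Prop :=
  ∀ (σ : Equiv.Perm (Fin 11)) (f : ℕ → ℕ), (∀ i : Fin 11, f (i : ℕ) = ((σ i : Fin 11) : ℕ)) →
    σ.support.card = cntB f 11

end Cfsg.Agent.Lib.Helper98.S11
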