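import Mathlib

set_option autoImplicit false

/-!
Permutations of eleven points coded by natural numbers (base eleven digits), with a
multiplication on codes which the kernel can evaluate quickly.
-/

namespace Cfsg.Agent.Lib.Helper98.S11

/-- Permutations of eleven points. -/
abbrev Pm := Equiv.Perm (Fin 11)

/-- The `i`-th base eleven digit. -/
def dg (c i : ℕ) : ℕ := c / 11 ^ i % 11

theorem dg_lt (c i : ℕ) : dg c i < 11 := Nat.mod_lt _ (by norm_num)

/-- Product of codes. -/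
def mulc (a b : ℕ) : ℕ :=
  dg a (dg b 0) + 11 * dg a (dg b 1) + 121 * dg a (dg b 2) + 1331 * dg a (dg b 3) + 14641 * dg a (dg b 4) + 161051 * dg a (dg b 5) + 1771561 * dg a (dg b 6) + 19487171 * dg a (dg b 7) + 214358881 * dg a (dg b 8) + 2357947691 * dg a (dg b 9) + 25937424601 * dg a (dg b 10)

/-- The code of a permutation. -/
def enc (σ : Pm) : ℕ :=
  (σ 0 : ℕ) + 11 * (σ 1 : ℕ) + 121 * (σ 2 : ℕ) + 1331 * (σ 3 : ℕ) + 14641 * (σ 4 : ℕ) + 161051 * (σ 5 : ℕ) + 1771561 * (σ 6 : ℕ) + 19487171 * (σ 7 : ℕ) + 214358881 * (σ 8 : ℕ) + 2357947691 * (σ 9 : ℕ) + 25937424601 * (σ 10 : ℕ)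

/-- The code of the identity. -/
def idc : ℕ := 282458553905

theorem dg_sum (d0 d1 d2 d3 d4 d5 d6 d7 d8 d9 d10 : ℕ) (h0 : d0 < 11) (h1 : d1 < 11) (h2 : d2 < 11) (h3 : d3 < 11) (h4 : d4 < 11) (h5 : d5 < 11) (h6 : d6 < 11) (h7 : d7 < 11) (h8 : d8 < 11) (h9 : d9 < 11) (h10 : d10 < 11) :
    dg (d0 + 11 * d1 + 121 * d2 + 1331 * d3 + 14641 * d4 + 161051 * d5 + 1771561 * d6 + 19487171 * d7 + 214358881 * d8 + 2357947691 * d9 + 25937424601 * d10) 0 = d0 ∧
    dg (d0 + 11 * d1 + 121 * d2 + 1331 * d3 + 14641 * d4 + 161051 * d5 + 1771561 * d6 + 19487171 * d7 + 214358881 * d8 + 2357947691 * d9 + 25937424601 * d10) 1 = d1 ∧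
    dg (d0 + 11 * d1 + 121 * d2 + 1331 * d3 + 14641 * d4 + 161051 * d5 + 1771561 * d6 + 19487171 * d7 + 214358881 * d8 + 2357947691 * d9 + 25937424601 * d10) 2 = d2 ∧
    dg (d0 + 11 * d1 + 121 * d2 + 1331 * d3 + 14641 * d4 + 161051 * d5 + 1771561 * d6 + 19487171 * d7 + 214358881 * d8 + 2357947691 * d9 + 25937424601 * d10) 3 = d3 ∧
    dg (d0 + 11 * d1 + 121 * d2 + 1331 * d3 + 14641 * d4 + 161051 * d5 + 1771561 * d6 + 19487171 * d7 + 214358881 * d8 + 2357947691 * d9 + 25937424601 * d10) 4 = d4 ∧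
    dg (d0 + 11 * d1 + 121 * d2 + 1331 * d3 + 14641 * d4 + 161051 * d5 + 1771561 * d6 + 19487171 * d7 + 214358881 * d8 + 2357947691 * d9 + 25937424601 * d10) 5 = d5 ∧
    dg (d0 + 11 * d1 + 121 * d2 + 1331 * d3 + 14641 * d4 + 161051 * d5 + 1771561 * d6 + 19487171 * d7 + 214358881 * d8 + 2357947691 * d9 + 25937424601 * d10) 6 = d6 ∧
    dg (d0 + 11 * d1 + 121 * d2 + 1331 * d3 + 14641 * d4 + 161051 * d5 + 1771561 * d6 + 19487171 * d7 + 214358881 * d8 + 2357947691 * d9 + 25937424601 * d10) 7 = d7 ∧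
    dg (d0 + 11 * d1 + 121 * d2 + 1331 * d3 + 14641 * d4 + 161051 * d5 + 1771561 * d6 + 19487171 * d7 + 214358881 * d8 + 2357947691 * d9 + 25937424601 * d10) 8 = d8 ∧
    dg (d0 + 11 * d1 + 121 * d2 + 1331 * d3 + 14641 * d4 + 161051 * d5 + 1771561 * d6 + 19487171 * d7 + 214358881 * d8 + 2357947691 * d9 + 25937424601 * d10) 9 = d9 ∧
    dg (d0 + 11 * d1 + 121 * d2 + 1331 * d3 + 14641 * d4 + 161051 * d5 + 1771561 * d6 + 19487171 * d7 + 214358881 * d8 + 2357947691 * d9 + 25937424601 * d10) 10 = d10 := by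
  unfold dg
  norm_num
  refine ⟨?_, ?_, ?_, ?_, ?_, ?_, ?_, ?_, ?_, ?_, ?_⟩ <;> omega

theorem dg_enc (σ : Pm) (i : Fin 11) : dg (enc σ) (i : ℕ) = (σ i : ℕ) := by
  obtain ⟨h0, h1, h2, h3, h4, h5, h6, h7, h8, h9, h10⟩ := dg_sum (σ 0) (σ 1) (σ 2) (σ 3) (σ 4) (σ 5) (σ 6) (σ 7) (σ 8) (σ 9) (σ 10)
    (σ 0).isLt (σ 1).isLt (σ 2).isLt (σ 3).isLt (σ 4).isLt (σ 5).isLt (σ 6).isLt (σ 7).isLt (σ 8).isLt (σ 9).isLt (σ 10).isLt
  unfold enc
  fin_cases i
  · exact h0
  · exact h1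
  · exact h2
  · exact h3
  · exact h4
  · exact h5
  · exact h6
  · exact h7
  · exact h8
  · exact h9
  · exact h10

theorem dg_mulc (a b i : ℕ) (hi : i < 11) : dg (mulc a b) i = dg a (dg b i) := by
  obtain ⟨h0, h1, h2, h3, h4, h5, h6, h7, h8, h9, h10⟩ := dg_sum (dg a (dg b 0)) (dg a (dg b 1)) (dg a (dg b 2)) (dg a (dg b 3)) (dg a (dg b 4)) (dg a (dg b 5)) (dg a (dg b 6)) (dg a (dg b 7)) (dg a (dg b 8)) (dg a (dg b 9)) (dg a (dg b 10))
    (dg_lt _ _) (dg_lt _ _) (dg_lt _ _) (dg_lt _ _) (dg_lt _ _) (dg_lt _ _) (dg_lt _ _) (dg_lt _ _) (dg_lt _ _) (dg_lt _ _) (dg_lt _ _)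
  unfold mulc
  interval_cases i
  · exact h0
  · exact h1
  · exact h2
  · exact h3
  · exact h4
  · exact h5
  · exact h6
  · exact h7
  · exact h8
  · exact h9
  · exact h10

theorem enc_mul (σ τ : Pm) : enc (σ * τ) = mulc (enc σ) (enc τ) := by
  have h : ∀ i : Fin 11, dg (enc σ) (dg (enc τ) (i : ℕ)) = ((σ * τ) i : ℕ) := by
    intro i
    rw [dg_enc τ i, dg_enc σ (τ i)]
    rfl
  have e0 : dg (enc σ) (dg (enc τ) 0) = ((σ * τ) 0 : ℕ) := h 0
  have e1 : dg (enc σ) (dg (enc τ) 1) = ((σ * τ) 1 : ℕ) := h 1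
  have e2 : dg (enc σ) (dg (enc τ) 2) = ((σ * τ) 2 : ℕ) := h 2
  have e3 : dg (enc σ) (dg (enc τ) 3) = ((σ * τ) 3 : ℕ) := h 3
  have e4 : dg (enc σ) (dg (enc τ) 4) = ((σ * τ) 4 : ℕ) := h 4
  have e5 : dg (enc σ) (dg (enc τ) 5) = ((σ * τ) 5 : ℕ) := h 5
  have e6 : dg (enc σ) (dg (enc τ) 6) = ((σ * τ) 6 : ℕ) := h 6
  have e7 : dg (enc σ) (dg (enc τ) 7) = ((σ * τ) 7 : ℕ) := h 7
  have e8 : dg (enc σ) (dg (enc τ) 8) = ((σ * τ) 8 : ℕ) := h 8
  have e9 : dg (enc σ) (dg (enc τ) 9) = ((σ * τ) 9 : ℕ) := h 9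
  have e10 : dg (enc σ) (dg (enc τ) 10) = ((σ * τ) 10 : ℕ) := h 10
  unfold mulc
  rw [e0, e1, e2, e3, e4, e5, e6, e7, e8, e9, e10]
  rfl

theorem enc_injective : Function.Injective enc := by
  intro σ τ h
  ext i
  rw [← dg_enc σ i, ← dg_enc τ i, h]

theorem enc_one : enc 1 = idc := by
  simp [enc, idc]

theorem enc_lt (σ : Pm) : enc σ < 285311670611 := by
  unfold enc
  have h0 := (σ 0).isLt
  have h1 := (σ 1).isLt
  have h2 := (σ 2).isLt
  have h3 := (σ 3).isLt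
  have h4 := (σ 4).isLt
  have h5 := (σ 5).isLt
  have h6 := (σ 6).isLt
  have h7 := (σ 7).isLt
  have h8 := (σ 8).isLt
  have h9 := (σ 9).isLt
  have h10 := (σ 10).isLt
  omega

/-- Codes of permutations. -/
def Valid (c : ℕ) : Prop := ∃ σ : Pm, enc σ = c

open Classical in
/-- The permutation with a given code. -/
noncomputable def pm (c : ℕ) : Pm := if h : Valid c then h.choose else 1

theorem pm_enc (σ : Pm) : pm (enc σ) = σ := by
  have h : Valid (enc σ) := ⟨σ, rfl⟩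
  unfold pm
  rw [dif_pos h]
  exact enc_injective h.choose_spec

theorem enc_pm {c : ℕ} (h : Valid c) : enc (pm c) = c := by
  obtain ⟨σ, rfl⟩ := h
  rw [pm_enc]

theorem valid_enc (σ : Pm) : Valid (enc σ) := ⟨σ, rfl⟩

theorem valid_mulc {a b : ℕ} (ha : Valid a) (hb : Valid b) : Valid (mulc a b) := by
  obtain ⟨σ, rfl⟩ := ha
  obtain ⟨τ, rfl⟩ := hb
  exact ⟨σ * τ, enc_mul σ τ⟩

theorem pm_mulc {a b : ℕ} (ha : Valid a) (hb : Valid b) : pm (mulc a b) = pm a * pm b := by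
  obtain ⟨σ, rfl⟩ := ha
  obtain ⟨τ, rfl⟩ := hb
  rw [← enc_mul, pm_enc, pm_enc, pm_enc]

theorem valid_idc : Valid idc := ⟨1, enc_one⟩

theorem pm_idc : pm idc = 1 := by rw [← enc_one, pm_enc]

theorem eq_pm_of_enc {σ : Pm} {c : ℕ} (h : enc σ = c) : σ = pm c := by
  rw [← h, pm_enc]

theorem digits_sum (c : ℕ) (h : c < 285311670611) :
    dg c 0 + 11 * dg c 1 + 121 * dg c 2 + 1331 * dg c 3 + 14641 * dg c 4 + 161051 * dg c 5 + 1771561 * dg c 6 + 19487171 * dg c 7 + 214358881 * dg c 8 + 2357947691 * dg c 9 + 25937424601 * dg c 10 = c := by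
  unfold dg
  norm_num
  omega

theorem dg_idc (i : ℕ) (hi : i < 11) : dg idc i = i := by
  interval_cases i <;> rfl

theorem valid_of_inv (c d : ℕ) (h1 : mulc c d = idc) (h2 : mulc d c = idc)
    (hlt : c < 285311670611) : Valid c := by
  have hl : ∀ i : Fin 11, dg d (dg c i) = i := by
    intro i
    rw [← dg_mulc d c i i.isLt, h2, dg_idc i i.isLt]
  have hr : ∀ i : Fin 11, dg c (dg d i) = i := by
    intro i
    rw [← dg_mulc c d i i.isLt, h1, dg_idc i i.isLt]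
  let σ : Pm :=
    { toFun := fun i => ⟨dg c i, dg_lt _ _⟩
      invFun := fun i => ⟨dg d i, dg_lt _ _⟩
      left_inv := fun i => Fin.ext (hl i)
      right_inv := fun i => Fin.ext (hr i) }
  refine ⟨σ, ?_⟩
  have := digits_sum c hlt
  exact this

/-- The `i`-th digit, in a form which the kernel evaluates quickly. -/
def dr (c i : ℕ) : ℕ := Nat.mod (Nat.div c (Nat.pow 11 i)) 11

/-- Product of codes, in a form which the kernel evaluates quickly. -/
def mulr (a b : ℕ) : ℕ :=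
  (Nat.add (Nat.add (Nat.add (Nat.add (Nat.add (Nat.add (Nat.add (Nat.add (Nat.add (Nat.add 
    (dr a (dr b 0))
    (Nat.mul 11 (dr a (dr b 1))))
    (Nat.mul 121 (dr a (dr b 2))))
    (Nat.mul 1331 (dr a (dr b 3))))
    (Nat.mul 14641 (dr a (dr b 4))))
    (Nat.mul 161051 (dr a (dr b 5))))
    (Nat.mul 1771561 (dr a (dr b 6))))
    (Nat.mul 19487171 (dr a (dr b 7))))
    (Nat.mul 214358881 (dr a (dr b 8))))
    (Nat.mul 2357947691 (dr a (dr b 9))))
    (Nat.mul 25937424601 (dr a (dr b 10))))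

theorem mulr_eq (a b : ℕ) : mulr a b = mulc a b := rfl

/-- Read the `k`-th slot of width `w` of a packed number. -/
def accr (S w k : ℕ) : ℕ :=
  Nat.land (Nat.shiftRight S (Nat.mul w k)) (Nat.sub (Nat.pow 2 w) 1)

/-- Read the `k`-th slot of a table stored in chunks of 252 slots. -/
def accL (L : List ℕ) (w k : ℕ) : ℕ := accr (L.getD (Nat.div k 252) 0) w (Nat.mod k 252)

/-- Read the `k`-th slot of a table stored in groups of 36 chunks of 252 slots. -/
def accLL (LL : List (List ℕ)) (w k : ℕ) : ℕ :=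
  accr ((LL.getD (Nat.div k 9072) []).getD (Nat.mod (Nat.div k 252) 36) 0) w (Nat.mod k 252)

/-- Read a bit field. -/
def fld (e off w : ℕ) : ℕ := Nat.land (Nat.shiftRight e off) (Nat.sub (Nat.pow 2 w) 1)

/-- A bounded universal quantifier which the kernel evaluates. -/
def allB : ℕ → (ℕ → Bool) → Bool
  | 0, _ => true
  | n + 1, f => f n && allB n f

theorem allB_spec {n : ℕ} {f : ℕ → Bool} (h : allB n f = true) : ∀ k < n, f k = true := by
  induction n with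
  | zero => intro k hk; omega
  | succ n ih =>
    intro k hk
    rw [allB, Bool.and_eq_true] at h
    rcases Nat.lt_succ_iff_lt_or_eq.mp hk with hk' | rfl
    · exact ih h.2 k hk'
    · exact h.1

theorem allB_of {n : ℕ} {f : ℕ → Bool} (h : ∀ k < n, f k = true) : allB n f = true := by
  induction n with
  | zero => rfl
  | succ n ih =>
    rw [allB, Bool.and_eq_true]
    exact ⟨h n (Nat.lt_succ_self n), ih (fun k hk => h k (Nat.lt_succ_of_lt hk))⟩

/-- Run through three lists of chunks in parallel. -/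
def allC3 : List ℕ → List ℕ → List ℕ → ℕ → ℕ → ℕ → (ℕ → ℕ → ℕ → Bool) → Bool
  | c :: cs, d :: ds, e :: es, w1, w2, w3, f =>
    allB 252 (fun j => f (accr c w1 j) (accr d w2 j) (accr e w3 j))
      && allC3 cs ds es w1 w2 w3 f
  | _, _, _, _, _, _, _ => true

theorem allC3_spec (L1 L2 L3 : List ℕ) (w1 w2 w3 : ℕ) (f : ℕ → ℕ → ℕ → Bool)
    (h : allC3 L1 L2 L3 w1 w2 w3 f = true) (q j : ℕ) (hq1 : q < L1.length)
    (hq2 : q < L2.length) (hq3 : q < L3.length) (hj : j < 252) :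
    f (accr (L1.getD q 0) w1 j) (accr (L2.getD q 0) w2 j) (accr (L3.getD q 0) w3 j) = true := by
  induction L1 generalizing L2 L3 q with
  | nil => simp at hq1
  | cons c cs ih =>
    cases L2 with
    | nil => simp at hq2
    | cons d ds =>
      cases L3 with
      | nil => simp at hq3
      | cons e es =>
        rw [allC3, Bool.and_eq_true] at h
        cases q with
        | zero =>
          have := allB_spec h.1 j hj
          simpa using this
        | succ q =>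
          have h2 := ih ds es h.2 q (by simpa using hq1) (by simpa using hq2)
            (by simpa using hq3)
          simpa using h2

end Cfsg.Agent.Lib.Helper98.S11
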