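import Mathlib
import Cfsg.Agent.Lib.Helper98.S11.Enc
import Cfsg.Agent.Lib.Helper98.S11.Pkgs

set_option autoImplicit false

/-!
Groups generated by coded permutations of eleven points: words, element tables, complete
tables, and the simplicity certificate (ported from the degree eight case).
-/

namespace Cfsg.Agent.Lib.Helper98.S11

open Equiv

/-- Code of the rotation. -/
def rhoc : ℕ := 25678050355

/-- Code of the transposition of `0` and `1`. -/
def tauc : ℕ := 282458553895

theorem enc_rho : enc (finRotate 11) = rhoc := by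
  decide

theorem enc_tau : enc (swap (0 : Fin 11) 1) = tauc := by
  decide

/-- The statement proved for each generating list: every group containing the generators
satisfies the conclusion. -/
def P (gs : List ℕ) : Prop :=
  ∀ H : Subgroup Pm, (∀ g ∈ gs, pm g ∈ H) → Good11 H

/-- Conjugating a subgroup. -/
def cj (H : Subgroup Pm) (c : Pm) : Subgroup Pm := H.comap (MulAut.conj c).toMonoidHom

theorem mem_cj (H : Subgroup Pm) (c x : Pm) : x ∈ cj H c ↔ c * x * c⁻¹ ∈ H := by
  unfold cj
  rw [Subgroup.mem_comap]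
  rfl

/-- The group generated by a list of codes. -/
def Kc (gs : List ℕ) : Subgroup Pm := Subgroup.closure {σ | ∃ g ∈ gs, σ = pm g}

theorem pm_mem_Kc {gs : List ℕ} {g : ℕ} (h : g ∈ gs) : pm g ∈ Kc gs :=
  Subgroup.subset_closure ⟨g, h, rfl⟩

theorem Kc_le {gs : List ℕ} {H : Subgroup Pm} (h : ∀ g ∈ gs, pm g ∈ H) : Kc gs ≤ H := by
  unfold Kc
  rw [Subgroup.closure_le]
  rintro σ ⟨g, hg, rfl⟩
  exact h g hg

theorem getD_valid {gs : List ℕ} (hgs : ∀ g ∈ gs, Valid g) (i : ℕ) :
    Valid (gs.getD i idc) ∧ pm (gs.getD i idc) ∈ Kc gs := by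
  by_cases hi : i < gs.length
  · rw [List.getD_eq_getElem _ _ hi]
    exact ⟨hgs _ (List.getElem_mem hi), pm_mem_Kc (List.getElem_mem hi)⟩
  · rw [List.getD_eq_default _ _ (by omega)]
    exact ⟨valid_idc, by rw [pm_idc]; exact one_mem _⟩

/-- Evaluate a word in the generators (base four digits, last letter first). -/
def evw (gs : List ℕ) : ℕ → ℕ → ℕ
  | 0, _ => idc
  | f + 1, w =>
    cond (Nat.beq w 0) idc
      (mulr (evw gs f (Nat.div w 4)) (gs.getD (Nat.sub (Nat.mod w 4) 1) idc))

theorem evw_spec {gs : List ℕ} (hgs : ∀ g ∈ gs, Valid g) (f w : ℕ) :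
    Valid (evw gs f w) ∧ pm (evw gs f w) ∈ Kc gs := by
  induction f generalizing w with
  | zero => exact ⟨valid_idc, by rw [evw, pm_idc]; exact one_mem _⟩
  | succ f ih =>
    rw [evw]
    cases Nat.beq w 0 with
    | true => exact ⟨valid_idc, by rw [cond_true, pm_idc]; exact one_mem _⟩
    | false =>
      rw [cond_false, mulr_eq]
      obtain ⟨h1, h2⟩ := ih (Nat.div w 4)
      obtain ⟨h3, h4⟩ := getD_valid hgs (Nat.sub (Nat.mod w 4) 1)
      exact ⟨valid_mulc h1 h3, by rw [pm_mulc h1 h3]; exact mul_mem h2 h4⟩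

/-- Induction along right multiplication by generators. -/
theorem closure_right_induction (s : Set Pm) (Q : Pm → Prop) (h1 : Q 1)
    (hs : ∀ π, Q π → ∀ γ ∈ s, Q (π * γ)) : ∀ σ ∈ Subgroup.closure s, Q σ := by
  have key : ∀ γ : Pm, γ ∈ Subgroup.closure s → ∀ π : Pm, Q π → Q (π * γ) := by
    intro γ hγ
    refine Subgroup.closure_induction (p := fun γ _ => ∀ π : Pm, Q π → Q (π * γ)) ?_ ?_ ?_ ?_ hγ
    · intro x hx π hπ
      exact hs π hπ x hx
    · intro π hπ
      simpa using hπ
    · intro x y _ _ hx hy π hπ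
      rw [← mul_assoc]
      exact hy _ (hx _ hπ)
    · intro x _ hx π hπ
      have hpow : ∀ j : ℕ, Q (π * x ^ j) := by
        intro j
        induction j with
        | zero => simpa using hπ
        | succ j ih =>
          rw [pow_succ, ← mul_assoc]
          exact hx _ ih
      have hinv : x⁻¹ = x ^ (orderOf x - 1) := by
        apply inv_eq_of_mul_eq_one_left
        rw [← pow_succ, Nat.sub_add_cancel (orderOf_pos x), pow_orderOf_eq_one]
      rw [hinv]
      exact hpow _
  intro σ hσ
  have := key σ hσ 1 h1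
  simpa using this

/-- The check that the table `E` consists of elements of the generated group: every entry is
the identity or an entry of smaller depth times a generator. -/
def chkE (gs E EP : List ℕ) (m : ℕ) : Bool :=
  allB m (fun i =>
    cond (Nat.beq (fld (accL EP 32 i) 20 8) 0) (Nat.beq (accL E 40 i) idc)
      (Nat.blt (fld (accL EP 32 i) 0 16) m &&
        Nat.blt (fld (accL EP 32 (fld (accL EP 32 i) 0 16)) 20 8) (fld (accL EP 32 i) 20 8) &&
        Nat.beq (accL E 40 i)
          (mulr (accL E 40 (fld (accL EP 32 i) 0 16)) (gs.getD (fld (accL EP 32 i) 16 4) idc))))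

theorem chkE_spec {gs E EP : List ℕ} {m : ℕ} (hgs : ∀ g ∈ gs, Valid g)
    (h : chkE gs E EP m = true) (i : ℕ) (hi : i < m) :
    Valid (accL E 40 i) ∧ pm (accL E 40 i) ∈ Kc gs := by
  have hall := allB_spec h
  have key : ∀ D : ℕ, ∀ i, i < m → fld (accL EP 32 i) 20 8 < D →
      Valid (accL E 40 i) ∧ pm (accL E 40 i) ∈ Kc gs := by
    intro D
    induction D with
    | zero => intro i _ hd; omega
    | succ D ih =>
      intro i hi hd
      have hc := hall i hi
      cases hb : Nat.beq (fld (accL EP 32 i) 20 8) 0 with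
      | true =>
        rw [hb, cond_true] at hc
        have : accL E 40 i = idc := Nat.eq_of_beq_eq_true hc
        rw [this]
        exact ⟨valid_idc, by rw [pm_idc]; exact one_mem _⟩
      | false =>
        rw [hb, cond_false, Bool.and_eq_true, Bool.and_eq_true] at hc
        obtain ⟨⟨c1, c2⟩, c3⟩ := hc
        have c1' : fld (accL EP 32 i) 0 16 < m := by simpa using c1
        have c2' : fld (accL EP 32 (fld (accL EP 32 i) 0 16)) 20 8 < fld (accL EP 32 i) 20 8 := by
          simpa using c2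
        have c3' := Nat.eq_of_beq_eq_true c3
        obtain ⟨v1, v2⟩ := ih _ c1' (by omega)
        obtain ⟨v3, v4⟩ := getD_valid hgs (fld (accL EP 32 i) 16 4)
        rw [c3', mulr_eq]
        exact ⟨valid_mulc v1 v3, by rw [pm_mulc v1 v3]; exact mul_mem v2 v4⟩
  exact key _ i hi (Nat.lt_succ_self _)

/-- The check that two codes are inverse to each other. -/
def chkInv (c d : ℕ) : Bool :=
  Nat.blt c 285311670611 && Nat.blt d 285311670611 && Nat.beq (mulr c d) idc && Nat.beq (mulr d c) idc

theorem chkInv_spec {c d : ℕ} (h : chkInv c d = true) :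
    Valid c ∧ Valid d ∧ pm d = (pm c)⁻¹ := by
  unfold chkInv at h
  rw [Bool.and_eq_true, Bool.and_eq_true, Bool.and_eq_true] at h
  obtain ⟨⟨⟨h1, h2⟩, h3⟩, h4⟩ := h
  have h1' : c < 285311670611 := by simpa using h1
  have h2' : d < 285311670611 := by simpa using h2
  have h3' : mulc c d = idc := Nat.eq_of_beq_eq_true h3
  have h4' : mulc d c = idc := Nat.eq_of_beq_eq_true h4
  have vc := valid_of_inv c d h3' h4' h1'
  have vd := valid_of_inv d c h4' h3' h2'
  refine ⟨vc, vd, ?_⟩
  apply eq_inv_of_mul_eq_one_right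
  rw [← pm_mulc vc vd, h3', pm_idc]

/-- The check that two lists consist of mutually inverse codes. -/
def chkV : List ℕ → List ℕ → Bool
  | c :: cs, d :: ds => chkInv c d && chkV cs ds
  | [], _ => true
  | _ :: _, [] => false

theorem chkV_spec {L LI : List ℕ} (h : chkV L LI = true) :
    ∀ c ∈ L, ∃ d, Valid c ∧ Valid d ∧ pm d = (pm c)⁻¹ := by
  induction L generalizing LI with
  | nil => intro c hc; simp at hc
  | cons c cs ih =>
    cases LI with
    | nil => simp [chkV] at h
    | cons d ds =>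
      rw [chkV, Bool.and_eq_true] at h
      intro x hx
      rcases List.mem_cons.mp hx with rfl | hx
      · exact ⟨d, chkInv_spec h.1⟩
      · exact ih h.2 x hx

theorem chkV_valid {L LI : List ℕ} (h : chkV L LI = true) : ∀ c ∈ L, Valid c := by
  intro c hc
  obtain ⟨d, hd⟩ := chkV_spec h c hc
  exact hd.1

/-- Powers of a code. -/
def pwr (g : ℕ) : ℕ → ℕ
  | 0 => idc
  | j + 1 => mulr (pwr g j) g

theorem pwr_spec {g : ℕ} (hg : Valid g) (j : ℕ) : Valid (pwr g j) ∧ pm (pwr g j) = pm g ^ j := by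
  induction j with
  | zero => exact ⟨valid_idc, by rw [pwr, pm_idc, pow_zero]⟩
  | succ j ih =>
    rw [pwr, mulr_eq]
    exact ⟨valid_mulc ih.1 hg, by rw [pm_mulc ih.1 hg, ih.2, pow_succ]⟩

theorem forall_nil {p : ℕ → Prop} : ∀ x ∈ ([] : List ℕ), p x := by
  intro x h
  simp at h

theorem forall_cons {p : ℕ → Prop} {a : ℕ} {l : List ℕ} (h1 : p a) (h2 : ∀ x ∈ l, p x) :
    ∀ x ∈ a :: l, p x :=
  List.forall_mem_cons.mpr ⟨h1, h2⟩

theorem orderOf_pm_of_pwr (g p : ℕ) (hp : p.Prime) (hg : Valid g) (h1 : pwr g p = idc)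
    (h2 : g ≠ idc) : orderOf (pm g) = p := by
  have : Fact p.Prime := ⟨hp⟩
  apply orderOf_eq_prime
  · rw [← (pwr_spec hg p).2, h1, pm_idc]
  · intro h0
    apply h2
    rw [← enc_pm hg, h0, enc_one]

/-- The table is strictly increasing. -/
def chkSorted (E : List ℕ) (m : ℕ) : Bool :=
  allB (Nat.sub m 1) (fun i => Nat.blt (accL E 40 i) (accL E 40 (Nat.add i 1)))

theorem chkSorted_spec {E : List ℕ} {m : ℕ} (h : chkSorted E m = true) :
    ∀ i j, i < j → j < m → accL E 40 i < accL E 40 j := by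
  have hall := allB_spec h
  have step : ∀ i, i + 1 < m → accL E 40 i < accL E 40 (i + 1) := by
    intro i hi
    have h1 := hall i (by show i < m - 1; omega)
    simpa using h1
  intro i j hij hj
  induction j with
  | zero => omega
  | succ j ih =>
    rcases Nat.lt_succ_iff_lt_or_eq.mp hij with h1 | h1
    · exact lt_trans (ih h1 (by omega)) (step j hj)
    · rw [h1]; exact step j hj

/-- One row of the closure table. -/
def chkClRow (E : List ℕ) (m x e : ℕ) : List ℕ → ℕ → Bool
  | [], _ => true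
  | g :: gs, off =>
    Nat.blt (fld e off 16) m && Nat.beq (accL E 40 (fld e off 16)) (mulr x g)
      && chkClRow E m x e gs (Nat.add off 16)

theorem chkClRow_spec {E : List ℕ} {m x e : ℕ} (gs : List ℕ) (off : ℕ)
    (h : chkClRow E m x e gs off = true) : ∀ g ∈ gs, ∃ j, j < m ∧ accL E 40 j = mulc x g := by
  induction gs generalizing off with
  | nil => intro g hg; simp at hg
  | cons g gs ih =>
    rw [chkClRow, Bool.and_eq_true, Bool.and_eq_true] at h
    obtain ⟨⟨h1, h2⟩, h3⟩ := h
    intro y hy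
    rcases List.mem_cons.mp hy with hy | hy
    · rw [hy]; exact ⟨_, by simpa using h1, Nat.eq_of_beq_eq_true h2⟩
    · exact ih _ h3 y hy

/-- The table contains the identity and is closed under right multiplication by generators. -/
def chkCl (gs E EN : List ℕ) (m i0 : ℕ) : Bool :=
  Nat.blt i0 m && Nat.beq (accL E 40 i0) idc &&
    allB m (fun i => chkClRow E m (accL E 40 i) (accL EN 48 i) gs 0)

/-- A complete table of the group generated by `gs`. -/
structure Tab (gs E : List ℕ) (m : ℕ) : Prop where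
  valid : ∀ i, i < m → Valid (accL E 40 i) ∧ pm (accL E 40 i) ∈ Kc gs
  complete : ∀ σ ∈ Kc gs, ∃ i, i < m ∧ accL E 40 i = enc σ
  card : Nat.card ↥(Kc gs) = m

theorem tab_of_chk (gs E EP EN : List ℕ) (m i0 : ℕ) (hgs : ∀ g ∈ gs, Valid g)
    (hE : chkE gs E EP m = true) (hs : chkSorted E m = true)
    (hc : chkCl gs E EN m i0 = true) : Tab gs E m := by
  have hv := chkE_spec hgs hE
  unfold chkCl at hc
  rw [Bool.and_eq_true, Bool.and_eq_true] at hc
  obtain ⟨⟨c1, c2⟩, c3⟩ := hc
  have c1' : i0 < m := by simpa using c1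
  have c2' : accL E 40 i0 = idc := Nat.eq_of_beq_eq_true c2
  have hall := allB_spec c3
  have hcomp : ∀ σ ∈ Kc gs, ∃ i, i < m ∧ accL E 40 i = enc σ := by
    apply closure_right_induction {σ | ∃ g ∈ gs, σ = pm g}
      (fun σ => ∃ i, i < m ∧ accL E 40 i = enc σ)
    · exact ⟨i0, c1', by rw [c2', enc_one]⟩
    · rintro π ⟨i, hi, hiπ⟩ γ ⟨g, hg, rfl⟩
      obtain ⟨j, hj, hjx⟩ := chkClRow_spec gs 0 (hall i hi) g hg
      refine ⟨j, hj, ?_⟩
      rw [hjx, hiπ, enc_mul, enc_pm (hgs g hg)]
  refine ⟨hv, hcomp, ?_⟩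
  have hmono := chkSorted_spec hs
  let f : Fin m → ↥(Kc gs) := fun i => ⟨pm (accL E 40 i), (hv i i.isLt).2⟩
  have hbij : Function.Bijective f := by
    constructor
    · intro i j hij
      have h1 : pm (accL E 40 i) = pm (accL E 40 j) := congrArg Subtype.val hij
      have h2 : accL E 40 i = accL E 40 j := by
        rw [← enc_pm (hv i i.isLt).1, ← enc_pm (hv j j.isLt).1, h1]
      apply Fin.ext
      rcases lt_trichotomy (i : ℕ) j with h | h | h
      · exact absurd h2 (ne_of_lt (hmono _ _ h j.isLt))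
      · exact h
      · exact absurd h2.symm (ne_of_lt (hmono _ _ h i.isLt))
    · rintro ⟨σ, hσ⟩
      obtain ⟨i, hi, hiσ⟩ := hcomp σ hσ
      refine ⟨⟨i, hi⟩, ?_⟩
      apply Subtype.ext
      show pm (accL E 40 i) = σ
      rw [hiσ, pm_enc]
  rw [← Nat.card_eq_of_bijective f hbij, Nat.card_fin]

/-- Membership in a list of numbers. -/
def memB : List ℕ → ℕ → Bool
  | [], _ => false
  | a :: as, x => Nat.beq a x || memB as x

theorem memB_spec {L : List ℕ} {x : ℕ} (h : memB L x = true) : x ∈ L := by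
  induction L with
  | nil => simp [memB] at h
  | cons a as ih =>
    rw [memB, Bool.or_eq_true] at h
    rcases h with h | h
    · rw [Nat.eq_of_beq_eq_true h]; exact List.mem_cons_self ..
    · exact List.mem_cons_of_mem _ (ih h)

/-- The product of the second components of a list of packed pairs. -/
def prodE (E : List ℕ) : List ℕ → ℕ
  | [] => idc
  | pr :: ps => mulr (accL E 40 (fld pr 12 12)) (prodE E ps)

/-- Each packed pair `(a, b)` satisfies `E[a] * x = E[b] * E[a]`. -/
def chkPairs (E : List ℕ) (m x : ℕ) : List ℕ → Bool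
  | [] => true
  | pr :: ps =>
    Nat.blt (fld pr 0 12) m && Nat.blt (fld pr 12 12) m &&
      Nat.beq (mulr (accL E 40 (fld pr 0 12)) x)
        (mulr (accL E 40 (fld pr 12 12)) (accL E 40 (fld pr 0 12))) &&
      chkPairs E m x ps

theorem chkPairs_spec {gs E : List ℕ} {m : ℕ} (ht : Tab gs E m) {x : ℕ} (vx : Valid x)
    (N : Subgroup Pm) (hx : pm x ∈ N) (hN : ∀ k ∈ Kc gs, ∀ n ∈ N, k * n * k⁻¹ ∈ N)
    (ps : List ℕ) (h : chkPairs E m x ps = true) :
    Valid (prodE E ps) ∧ pm (prodE E ps) ∈ N := by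
  induction ps with
  | nil => exact ⟨valid_idc, by rw [prodE, pm_idc]; exact one_mem _⟩
  | cons pr ps ih =>
    rw [chkPairs, Bool.and_eq_true, Bool.and_eq_true, Bool.and_eq_true] at h
    obtain ⟨⟨⟨h1, h2⟩, h3⟩, h4⟩ := h
    obtain ⟨va, ma⟩ := ht.valid _ (by simpa using h1 : fld pr 0 12 < m)
    obtain ⟨vb, _⟩ := ht.valid _ (by simpa using h2 : fld pr 12 12 < m)
    obtain ⟨v1, m1⟩ := ih h4
    have e := Nat.eq_of_beq_eq_true h3
    rw [mulr_eq, mulr_eq] at e
    have e2 := congrArg pm e
    rw [pm_mulc va vx, pm_mulc vb va] at e2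
    have e3 : pm (accL E 40 (fld pr 12 12))
        = pm (accL E 40 (fld pr 0 12)) * pm x * (pm (accL E 40 (fld pr 0 12)))⁻¹ := by
      rw [e2]; group
    rw [prodE, mulr_eq]
    refine ⟨valid_mulc vb v1, ?_⟩
    rw [pm_mulc vb v1, e3]
    exact mul_mem (hN _ ma _ hx) m1

/-- Each generator is a product of conjugates of `x`. -/
def chkGens (E : List ℕ) (m x : ℕ) : List ℕ → List (List ℕ) → Bool
  | [], _ => true
  | g :: gs, ps :: pss => chkPairs E m x ps && Nat.beq (prodE E ps) g && chkGens E m x gs pss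
  | _ :: _, [] => false

theorem chkGens_spec {gs E : List ℕ} {m : ℕ} (ht : Tab gs E m) {x : ℕ} (vx : Valid x)
    (N : Subgroup Pm) (hx : pm x ∈ N) (hN : ∀ k ∈ Kc gs, ∀ n ∈ N, k * n * k⁻¹ ∈ N)
    (gl : List ℕ) (pss : List (List ℕ)) (h : chkGens E m x gl pss = true) :
    ∀ g ∈ gl, pm g ∈ N := by
  induction gl generalizing pss with
  | nil => intro g hg; simp at hg
  | cons g gl ih =>
    cases pss with
    | nil => simp [chkGens] at h
    | cons ps pss =>
      rw [chkGens, Bool.and_eq_true, Bool.and_eq_true] at h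
      obtain ⟨⟨h1, h2⟩, h3⟩ := h
      intro y hy
      rcases List.mem_cons.mp hy with hy | hy
      · rw [hy, ← Nat.eq_of_beq_eq_true h2]
        exact (chkPairs_spec ht vx N hx hN ps h1).2
      · exact ih pss h3 y hy

/-- The simplicity certificate: for each nontrivial element, the generators are products of
its conjugates. -/
def chkSimp (gs E : List ℕ) (m : ℕ) : ℕ → List (List (List ℕ)) → Bool
  | i, [] => Nat.beq i m
  | i, r :: rs =>
    (Nat.beq (accL E 40 i) idc || chkGens E m (accL E 40 i) gs r) &&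
      chkSimp gs E m (Nat.add i 1) rs

theorem chkSimp_spec {gs E : List ℕ} {m : ℕ} (ht : Tab gs E m) (rs : List (List (List ℕ)))
    (i : ℕ) (h : chkSimp gs E m i rs = true) :
    ∀ i', i ≤ i' → i' < m → accL E 40 i' ≠ idc → ∀ N : Subgroup Pm, pm (accL E 40 i') ∈ N →
      (∀ k ∈ Kc gs, ∀ n ∈ N, k * n * k⁻¹ ∈ N) → ∀ g ∈ gs, pm g ∈ N := by
  induction rs generalizing i with
  | nil =>
    intro i' h1 h2
    have e : i = m := Nat.eq_of_beq_eq_true h
    omega
  | cons r rs ih =>
    rw [chkSimp, Bool.and_eq_true] at h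
    obtain ⟨h1, h2⟩ := h
    intro i' hi1 hi2 hne N hx hN
    rcases Nat.eq_or_lt_of_le hi1 with hi | hi
    · rw [← hi] at hne hx hi2
      rw [Bool.or_eq_true] at h1
      rcases h1 with h1 | h1
      · exact absurd (Nat.eq_of_beq_eq_true h1) hne
      · exact chkGens_spec ht (ht.valid i hi2).1 N hx hN gs r h1
    · exact ih (Nat.add i 1) h2 i' hi hi2 hne N hx hN

end Cfsg.Agent.Lib.Helper98.S11
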