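import Mathlib
import Cfsg.Agent.Lib.Helper98.S11.Base

set_option autoImplicit false

/-!
The rules of the closure tree for groups of permutations of eleven points: seed rule, three-cycle
rule, node rule (with a table of cosets) and root rule, and the certificates at the leaves.
-/

namespace Cfsg.Agent.Lib.Helper98.S11

open Equiv

/-- The packages used by the rules. -/
structure Pkgs11 : Prop where
  conj : PkgConj11
  jordan : PkgJordan11
  solv : PkgSolv11
  sharp : PkgSharp11
  l11 : PkgL11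
  simp : PkgSimp11
  norm : PkgNorm11
  pow : PkgPow11
  cos : PkgCos11
  supp : PkgSupp11

/-- Evaluate the number first (for the kernel). -/
def withN (n : ℕ) (f : ℕ → Bool) : Bool :=
  match n with
  | 0 => f 0
  | k + 1 => f (k + 1)

theorem withN_eq (n : ℕ) (f : ℕ → Bool) : withN n f = f n := by
  cases n <;> rfl

/-- The words of a seed. -/
def chkSeedW (gs : List ℕ) (c ci : ℕ) : List ℕ → List ℕ → Bool
  | g' :: gs', w :: ws => Nat.beq (evw gs 64 w) (mulr (mulr c g') ci) && chkSeedW gs c ci gs' ws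
  | [], _ => true
  | _ :: _, [] => false

/-- The check of the seed rule: conjugates of the generators `gs'` are words in `gs`. -/
def chkSeed (gs gs' : List ℕ) (c ci : ℕ) (ws : List ℕ) : Bool :=
  chkInv c ci && chkSeedW gs c ci gs' ws

theorem chkSeedW_spec {gs : List ℕ} (hgs : ∀ g ∈ gs, Valid g) {c ci : ℕ} (hc : Valid c)
    (hci : Valid ci) (hinv : pm ci = (pm c)⁻¹) (gs' ws : List ℕ) (hv : ∀ g ∈ gs', Valid g)
    (h : chkSeedW gs c ci gs' ws = true) :
    ∀ g' ∈ gs', pm c * pm g' * (pm c)⁻¹ ∈ Kc gs := by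
  induction gs' generalizing ws with
  | nil => intro g hg; simp at hg
  | cons g' gs' ih =>
    cases ws with
    | nil => simp [chkSeedW] at h
    | cons w ws =>
      rw [chkSeedW, Bool.and_eq_true] at h
      intro x hx
      rcases List.mem_cons.mp hx with hx | hx
      · have e := Nat.eq_of_beq_eq_true h.1
        simp only [mulr_eq] at e
        have vx : Valid g' := hv g' (List.mem_cons_self ..)
        obtain ⟨v1, m1⟩ := evw_spec hgs 64 w
        rw [e, pm_mulc (valid_mulc hc vx) hci, pm_mulc hc vx, hinv] at m1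
        rw [hx]
        exact m1
      · exact ih ws (fun g hg => hv g (List.mem_cons_of_mem _ hg)) h.2 x hx

theorem seed_rule (pk : Pkgs11) (gs gs' : List ℕ) (c ci : ℕ) (ws : List ℕ)
    (hgs : ∀ g ∈ gs, Valid g) (hgs' : ∀ g ∈ gs', Valid g)
    (h : chkSeed gs gs' c ci ws = true) (hP : P gs') : P gs := by
  unfold chkSeed at h
  rw [Bool.and_eq_true] at h
  obtain ⟨vc, vci, hinv⟩ := chkInv_spec h.1
  have key := chkSeedW_spec hgs vc vci hinv gs' ws hgs' h.2
  intro H hg
  have hKH : Kc gs ≤ H := Kc_le hg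
  apply pk.conj H (pm c)
  show Good11 (cj H (pm c))
  apply hP (cj H (pm c))
  intro g' hg'
  rw [mem_cj]
  exact hKH (key g' hg')

/-- A code moving exactly three points. -/
def is3 (c : ℕ) : Bool := Nat.beq (cntB (dr c) 11) 3

/-- The check of the three-cycle rule: a power of a word moves exactly three points. -/
def chk3 (gs : List ℕ) (w e : ℕ) : Bool :=
  withN (evw gs 64 w) (fun v => withN (pwr v e) (fun c => is3 c))

theorem three_rule (pk : Pkgs11) (gs : List ℕ) (g w e : ℕ) (hgs : ∀ x ∈ gs, Valid x)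
    (hg : g ∈ gs) (ho : orderOf (pm g) = 11) (h : chk3 gs w e = true) : P gs := by
  unfold chk3 at h
  rw [withN_eq, withN_eq] at h
  intro H hH
  have hKH : Kc gs ≤ H := Kc_le hH
  obtain ⟨v1, m1⟩ := evw_spec hgs 64 w
  obtain ⟨v2, e2⟩ := pwr_spec v1 e
  have hmem : pm (pwr (evw gs 64 w) e) ∈ H := by
    rw [e2]; exact pow_mem (hKH m1) _
  have e3 := pk.supp (pm (pwr (evw gs 64 w) e)) (dr (pwr (evw gs 64 w) e)) (by
    intro i
    have h4 := dg_enc (pm (pwr (evw gs 64 w) e)) i
    rw [enc_pm v2] at h4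
    exact h4)
  have hsupp : (pm (pwr (evw gs 64 w) e)).support.card = 3 := by
    rw [e3]; exact Nat.eq_of_beq_eq_true h
  right; left
  exact pk.jordan H (pm g) _ (hH g hg) hmem ho hsupp

/-- A coset representative times a generator of the symmetric group is an element of the group
times a coset representative. -/
def chkClos (E : List ℕ) (m : ℕ) (TT : List (List ℕ)) (nT : ℕ) (t cl : ℕ) : Bool :=
  Nat.blt (fld cl 0 16) m && Nat.blt (fld cl 16 20) nT &&
  Nat.beq (mulr t rhoc) (mulr (accL E 40 (fld cl 0 16)) (accLL TT 40 (fld cl 16 20))) &&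
  Nat.blt (fld cl 36 16) m && Nat.blt (fld cl 52 20) nT &&
  Nat.beq (mulr t tauc) (mulr (accL E 40 (fld cl 36 16)) (accLL TT 40 (fld cl 52 20)))

theorem cosets_cover (pk : Pkgs11) (gs E EP : List ℕ) (m : ℕ) (hgs : ∀ g ∈ gs, Valid g)
    (hE : chkE gs E EP m = true) (TT : List (List ℕ)) (nT : ℕ) (h0 : 0 < nT)
    (hT0 : accLL TT 40 0 = idc) (hv : ∀ k < nT, Valid (accLL TT 40 k))
    (hcl : ∀ k < nT, ∃ cl, chkClos E m TT nT (accLL TT 40 k) cl = true) :
    ∀ y : Pm, ∃ κ ∈ Kc gs, ∃ k, k < nT ∧ y = κ * pm (accLL TT 40 k) := by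
  have key := pk.cos (Kc gs) {t | ∃ k, k < nT ∧ t = pm (accLL TT 40 k)}
    ⟨0, h0, by rw [hT0, pm_idc]⟩ (by
      rintro t ⟨k, hk, rfl⟩ s hs
      obtain ⟨cl, hc⟩ := hcl k hk
      unfold chkClos at hc
      simp only [Bool.and_eq_true] at hc
      obtain ⟨⟨⟨⟨⟨a1, a2⟩, a3⟩, b1⟩, b2⟩, b3⟩ := hc
      rcases hs with hs | hs
      · have ha : fld cl 0 16 < m := by simpa using a1
        have hk' : fld cl 16 20 < nT := by simpa using a2
        obtain ⟨ve, me⟩ := chkE_spec hgs hE _ ha
        refine ⟨_, me, _, ⟨_, hk', rfl⟩, ?_⟩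
        have e := Nat.eq_of_beq_eq_true a3
        rw [mulr_eq, mulr_eq] at e
        have e2 := congrArg pm e
        rw [pm_mulc (hv k hk) ⟨_, enc_rho⟩, pm_mulc ve (hv _ hk'), ← enc_rho, pm_enc] at e2
        rw [hs]
        exact e2
      · rw [Set.mem_singleton_iff] at hs
        have ha : fld cl 36 16 < m := by simpa using b1
        have hk' : fld cl 52 20 < nT := by simpa using b2
        obtain ⟨ve, me⟩ := chkE_spec hgs hE _ ha
        refine ⟨_, me, _, ⟨_, hk', rfl⟩, ?_⟩
        have e := Nat.eq_of_beq_eq_true b3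
        rw [mulr_eq, mulr_eq] at e
        have e2 := congrArg pm e
        rw [pm_mulc (hv k hk) ⟨_, enc_tau⟩, pm_mulc ve (hv _ hk'), ← enc_tau, pm_enc] at e2
        rw [hs]
        exact e2)
  intro y
  obtain ⟨κ, hκ, t, ⟨k, hk, rfl⟩, hy⟩ := key y
  exact ⟨κ, hκ, k, hk, hy⟩

/-- The check on one coset representative in the node rule. -/
def chkNodeE (E : List ℕ) (m : ℕ) (TT : List (List ℕ)) (nT : ℕ) (R : List ℕ)
    (t ti cl rp : ℕ) : Bool :=
  chkInv t ti && chkClos E m TT nT t cl &&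
  cond (Nat.beq (fld rp 0 8) 0) (Nat.beq t idc)
    (Nat.blt (fld rp 8 16) m &&
      Nat.beq t (mulr (R.getD (Nat.sub (fld rp 0 8) 1) idc) (accL E 40 (fld rp 8 16))))

/-- The `Q`-th chunk of a table stored in groups of 36 chunks. -/
def chunkOf (TT : List (List ℕ)) (Q : ℕ) : ℕ :=
  (TT.getD (Nat.div Q 36) []).getD (Nat.mod Q 36) 0

theorem accLL_eq (TT : List (List ℕ)) (w k : ℕ) :
    accLL TT w k = accr (chunkOf TT (k / 252)) w (k % 252) := by
  have e : k / 252 / 36 = k / 9072 := by rw [Nat.div_div_eq_div_mul]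
  unfold accLL chunkOf
  show accr ((TT.getD (k / 9072) []).getD (k / 252 % 36) 0) w (k % 252)
    = accr ((TT.getD (k / 252 / 36) []).getD (k / 252 % 36) 0) w (k % 252)
  rw [e]

theorem node_core (pk : Pkgs11) (gs E EP : List ℕ) (m : ℕ) (hgs : ∀ g ∈ gs, Valid g)
    (hE : chkE gs E EP m = true) (TT : List (List ℕ)) (nT : ℕ) (R : List ℕ)
    (n0 : 0 < nT) (n1 : accLL TT 40 0 = idc)
    (hent : ∀ k < nT, ∃ ti cl rp, chkNodeE E m TT nT R (accLL TT 40 k) ti cl rp = true)
    (hR : ∀ r ∈ R, Valid r ∧ P (r :: gs))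
    (hK : Good11 (Kc gs)) : P gs := by
  have hv : ∀ k < nT, Valid (accLL TT 40 k) := by
    intro k hk
    obtain ⟨ti, cl, rp, h1⟩ := hent k hk
    unfold chkNodeE at h1
    rw [Bool.and_eq_true, Bool.and_eq_true] at h1
    exact (chkInv_spec h1.1.1).1
  have hcov := cosets_cover pk gs E EP m hgs hE TT nT n0 n1 hv (fun k hk => by
      obtain ⟨ti, cl, rp, h1⟩ := hent k hk
      unfold chkNodeE at h1
      rw [Bool.and_eq_true, Bool.and_eq_true] at h1
      exact ⟨cl, h1.1.2⟩)
  intro H hg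
  have hKH : Kc gs ≤ H := Kc_le hg
  by_cases hle : H ≤ Kc gs
  · have e : H = Kc gs := le_antisymm hle hKH
    rw [e]; exact hK
  · obtain ⟨y, hyH, hyK⟩ := SetLike.not_le_iff_exists.mp hle
    obtain ⟨κ, hκ, k, hk, hy⟩ := hcov y
    obtain ⟨ti, cl, rp, hc⟩ := hent k hk
    unfold chkNodeE at hc
    rw [Bool.and_eq_true, Bool.and_eq_true] at hc
    obtain ⟨⟨c1, c2⟩, c3⟩ := hc
    have ht : pm (accLL TT 40 k) ∈ H := by
      have e1 : pm (accLL TT 40 k) = κ⁻¹ * y := by rw [hy]; group
      rw [e1]; exact mul_mem (inv_mem (hKH hκ)) hyH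
    cases hb : Nat.beq (fld rp 0 8) 0 with
    | true =>
      rw [hb, cond_true] at c3
      have e1 : accLL TT 40 k = idc := Nat.eq_of_beq_eq_true c3
      rw [e1, pm_idc, mul_one] at hy
      rw [hy] at hyK
      exact absurd hκ hyK
    | false =>
      rw [hb, cond_false, Bool.and_eq_true] at c3
      obtain ⟨d1, d2⟩ := c3
      have hj : fld rp 8 16 < m := by simpa using d1
      obtain ⟨vj, mj⟩ := chkE_spec hgs hE _ hj
      have e := Nat.eq_of_beq_eq_true d2
      rw [mulr_eq] at e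
      by_cases hr : Nat.sub (fld rp 0 8) 1 < R.length
      · have hmem : R.getD (Nat.sub (fld rp 0 8) 1) idc ∈ R := by
          rw [List.getD_eq_getElem _ _ hr]; exact List.getElem_mem hr
        obtain ⟨vr, hPr⟩ := hR _ hmem
        have e2 := congrArg pm e
        rw [pm_mulc vr vj] at e2
        have hrH : pm (R.getD (Nat.sub (fld rp 0 8) 1) idc) ∈ H := by
          have e3 : pm (R.getD (Nat.sub (fld rp 0 8) 1) idc)
              = pm (accLL TT 40 k) * (pm (accL E 40 (fld rp 8 16)))⁻¹ := by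
            rw [e2]; group
          rw [e3]; exact mul_mem ht (inv_mem (hKH mj))
        apply hPr H
        intro g hg'
        rcases List.mem_cons.mp hg' with h | h
        · rw [h]; exact hrH
        · exact hg g h
      · have e0 : R.getD (Nat.sub (fld rp 0 8) 1) idc = idc :=
          List.getD_eq_default _ _ (by omega)
        rw [e0] at e
        have e2 := congrArg pm e
        rw [pm_mulc valid_idc vj, pm_idc, one_mul] at e2
        have h3 : y ∈ Kc gs := by rw [hy, e2]; exact mul_mem hκ mj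
        exact absurd h3 hyK

/-- The node rule, with the table of cosets checked chunk by chunk. -/
theorem node_rule_ch (pk : Pkgs11) (gs E EP : List ℕ) (m : ℕ) (hgs : ∀ g ∈ gs, Valid g)
    (hE : chkE gs E EP m = true) (TT : List (List ℕ)) (nQ nT : ℕ) (R : List ℕ)
    (hnT : nT = nQ * 252) (n0 : 0 < nQ) (n1 : accLL TT 40 0 = idc)
    (hch : ∀ Q < nQ, ∃ a b c : ℕ, allB 252 (fun j => chkNodeE E m TT nT R
        (accr (chunkOf TT Q) 40 j) (accr a 40 j) (accr b 72 j) (accr c 24 j)) = true)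
    (hR : ∀ r ∈ R, Valid r ∧ P (r :: gs))
    (hK : Good11 (Kc gs)) : P gs := by
  apply node_core pk gs E EP m hgs hE TT nT R (by omega) n1 ?_ hR hK
  intro k hk
  have hQ : k / 252 < nQ := by omega
  obtain ⟨a, b, c, h⟩ := hch _ hQ
  have h1 := allB_spec h (k % 252) (Nat.mod_lt _ (by norm_num))
  rw [accLL_eq]
  exact ⟨_, _, _, h1⟩

/-- The check on one coset representative in the root rule. -/
def chkRootE (g : ℕ) (E : List ℕ) (m : ℕ) (TT : List (List ℕ)) (Sp : List ℕ)
    (t cl sd : ℕ) : Bool :=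
  chkInv t (accLL TT 40 (fld sd 0 20)) && chkClos E m TT 362880 t cl &&
  (Nat.beq t idc ||
    withN (mulr (mulr (accLL TT 40 (fld sd 0 20)) g) t) (fun x =>
      cond (Nat.beq (fld sd 20 8) 0) (memB Sp x) (chk3 [x, g] (fld sd 28 36) (fld sd 20 8))))

theorem hall_of_chunks (g : ℕ) (E : List ℕ) (m : ℕ) (TT : List (List ℕ)) (Sp : List ℕ)
    (hch : ∀ Q < 1440, ∃ c d : ℕ, allB 252 (fun j => chkRootE g E m TT Sp
      (accr (chunkOf TT Q) 40 j) (accr c 72 j) (accr d 64 j)) = true) :
    ∀ k < 362880, ∃ cl sd, chkRootE g E m TT Sp (accLL TT 40 k) cl sd = true := by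
  intro k hk
  obtain ⟨c, d, h⟩ := hch (k / 252) (by omega)
  have h1 := allB_spec h (k % 252) (Nat.mod_lt _ (by norm_num))
  rw [accLL_eq]
  exact ⟨_, _, h1⟩

theorem root_rule (pk : Pkgs11) (g : ℕ) (hg : Valid g) (ho : orderOf (pm g) = 11)
    (ns E EP : List ℕ) (m : ℕ) (hns : ∀ n ∈ ns, Valid n) (hE : chkE ns E EP m = true)
    (hnorm : ∀ κ ∈ Kc ns, κ * pm g * κ⁻¹ ∈ Subgroup.zpowers (pm g))
    (TT : List (List ℕ)) (Sp : List ℕ) (hT0 : accLL TT 40 0 = idc)
    (hall : ∀ k < 362880, ∃ cl sd, chkRootE g E m TT Sp (accLL TT 40 k) cl sd = true)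
    (hSp : ∀ x ∈ Sp, Valid x ∧ P [x, g]) : P [g] := by
  have hv : ∀ k < 362880, Valid (accLL TT 40 k) := by
    intro k hk
    obtain ⟨cl, sd, h1⟩ := hall k hk
    unfold chkRootE at h1
    rw [Bool.and_eq_true, Bool.and_eq_true] at h1
    exact (chkInv_spec h1.1.1).1
  have hcov := cosets_cover pk ns E EP m hns hE TT 362880 (by norm_num) hT0 hv (fun k hk => by
    obtain ⟨cl, sd, h1⟩ := hall k hk
    unfold chkRootE at h1
    rw [Bool.and_eq_true, Bool.and_eq_true] at h1
    exact ⟨cl, h1.1.2⟩)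
  intro H hH
  have hgH : pm g ∈ H := hH g (List.mem_singleton.mpr rfl)
  by_cases hsub : ∀ y ∈ H, y ∈ Kc ns
  · left
    exact pk.solv H (pm g) hgH ho (fun h hh => hnorm h (hsub h hh))
  · push Not at hsub
    obtain ⟨y, hyH, hyK⟩ := hsub
    obtain ⟨κ, hκ, k, hk, hy⟩ := hcov y
    obtain ⟨cl, sd, hc⟩ := hall k hk
    unfold chkRootE at hc
    rw [Bool.and_eq_true, Bool.and_eq_true, Bool.or_eq_true] at hc
    obtain ⟨⟨c1, c2⟩, c3⟩ := hc
    rcases c3 with c3 | c3
    · have e1 : accLL TT 40 k = idc := Nat.eq_of_beq_eq_true c3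
      rw [e1, pm_idc, mul_one] at hy
      rw [hy] at hyK
      exact absurd hκ hyK
    · rw [withN_eq] at c3
      obtain ⟨vt, vti, einv⟩ := chkInv_spec c1
      have vx : Valid (mulr (mulr (accLL TT 40 (fld sd 0 20)) g) (accLL TT 40 k)) := by
        rw [mulr_eq, mulr_eq]; exact valid_mulc (valid_mulc vti hg) vt
      have ex : pm (mulr (mulr (accLL TT 40 (fld sd 0 20)) g) (accLL TT 40 k))
          = (pm (accLL TT 40 k))⁻¹ * pm g * pm (accLL TT 40 k) := by
        rw [mulr_eq, mulr_eq, pm_mulc (valid_mulc vti hg) vt, pm_mulc vti hg, einv]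
      obtain ⟨x, hx⟩ : ∃ x, x = mulr (mulr (accLL TT 40 (fld sd 0 20)) g) (accLL TT 40 k) :=
        ⟨_, rfl⟩
      rw [← hx] at c3 vx ex
      obtain ⟨t, htdef⟩ : ∃ t, t = pm (accLL TT 40 k) := ⟨_, rfl⟩
      rw [← htdef] at ex hy
      have hxH : pm x ∈ H := by
        have hκ' : κ⁻¹ * pm g * κ⁻¹⁻¹ ∈ Subgroup.zpowers (pm g) := hnorm κ⁻¹ (inv_mem hκ)
        obtain ⟨i, hi⟩ := Subgroup.mem_zpowers_iff.mp hκ'
        have e1 : pm x ^ i = y⁻¹ * pm g * y := by
          rw [ex]
          have e2 : (t⁻¹ * pm g * t) ^ i = t⁻¹ * pm g ^ i * t := by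
            have e3 := conj_zpow (i := i) (a := t⁻¹) (b := pm g)
            rw [inv_inv] at e3
            exact e3
          rw [e2, hi, hy]
          group
        have hne : pm x ^ i ≠ 1 := by
          intro h1
          rw [e1] at h1
          have h2 : pm g = 1 := by
            have h3 : pm g = y * (y⁻¹ * pm g * y) * y⁻¹ := by group
            rw [h3, h1]; group
          rw [h2, orderOf_one] at ho
          norm_num at ho
        have hord : orderOf (pm x) = 11 := by
          rw [ex]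
          have h4 := MulEquiv.orderOf_eq (MulAut.conj t⁻¹) (pm g)
          rw [MulAut.conj_apply, inv_inv] at h4
          rw [h4, ho]
        apply pk.pow H (pm x) i hord hne
        rw [e1]
        exact mul_mem (mul_mem (inv_mem hyH) hgH) hyH
      have hgens : ∀ z ∈ [x, g], pm z ∈ H := by
        intro z hz
        rcases List.mem_cons.mp hz with hz | hz
        · rw [hz]; exact hxH
        · rw [List.mem_singleton] at hz; rw [hz]; exact hgH
      cases hb : Nat.beq (fld sd 20 8) 0 with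
      | true =>
        rw [hb, cond_true] at c3
        exact (hSp x (memB_spec c3)).2 H hgens
      | false =>
        rw [hb, cond_false] at c3
        exact three_rule pk [x, g] g _ _ (forall_cons vx (forall_cons hg forall_nil))
          (List.mem_cons_of_mem _ (List.mem_singleton.mpr rfl)) ho c3 H hgens

/-- The certificate that only the identity fixes the points `0, 1, 2, 3`. -/
def chkStab (E : List ℕ) (m : ℕ) : Bool :=
  allB m (fun i => Nat.beq (accL E 40 i) idc ||
    !(Nat.beq (dr (accL E 40 i) 0) 0 && Nat.beq (dr (accL E 40 i) 1) 1 &&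
      Nat.beq (dr (accL E 40 i) 2) 2 && Nat.beq (dr (accL E 40 i) 3) 3))

theorem good_of_sharp (pk : Pkgs11) {gs E : List ℕ} (ht : Tab gs E 7920)
    (h : chkStab E 7920 = true) : Good11 (Kc gs) := by
  right; right; left
  apply pk.sharp (Kc gs) ht.card
  intro σ hσ h0 h1 h2 h3
  obtain ⟨i, hi, hiσ⟩ := ht.complete σ hσ
  have hc := allB_spec h i hi
  simp only [Bool.or_eq_true] at hc
  rw [hiσ] at hc
  rcases hc with hc | hc
  · apply enc_injective
    rw [Nat.eq_of_beq_eq_true hc, enc_one]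
  · exfalso
    have d0 : dr (enc σ) 0 = 0 := by
      have h4 := dg_enc σ 0
      rw [h0] at h4
      exact h4
    have d1 : dr (enc σ) 1 = 1 := by
      have h4 := dg_enc σ 1
      rw [h1] at h4
      exact h4
    have d2 : dr (enc σ) 2 = 2 := by
      have h4 := dg_enc σ 2
      rw [h2] at h4
      exact h4
    have d3 : dr (enc σ) 3 = 3 := by
      have h4 := dg_enc σ 3
      rw [h3] at h4
      exact h4
    rw [d0, d1, d2, d3] at hc
    simp at hc

theorem good_of_simple660 (pk : Pkgs11) {gs E : List ℕ} (hgs : ∀ g ∈ gs, Valid g)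
    (ht : Tab gs E 660) (SC : List (List (List ℕ))) (h : chkSimp gs E 660 0 SC = true)
    (hne : ∃ g ∈ gs, g ≠ idc) : Good11 (Kc gs) := by
  have hs : IsSimpleGroup ↥(Kc gs) := by
    apply pk.simp {σ | ∃ g ∈ gs, σ = pm g}
    · obtain ⟨g, hg, hne⟩ := hne
      refine ⟨pm g, ⟨g, hg, rfl⟩, ?_⟩
      intro h1
      apply hne
      rw [← enc_pm (hgs g hg), h1, enc_one]
    · rintro N ⟨x, hxN, hxK, hx1⟩ hN σ ⟨g, hg, rfl⟩
      obtain ⟨i, hi, hix⟩ := ht.complete x hxK
      have hne' : accL E 40 i ≠ idc := by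
        intro h0; apply hx1; apply enc_injective; rw [← hix, h0, enc_one]
      exact chkSimp_spec ht SC 0 h i (Nat.zero_le _) hi hne' N (by rw [hix, pm_enc]; exact hxN)
        hN g hg
  right; right; right
  exact pk.l11 ↥(Kc gs) ht.card

theorem final_of_root.{u} (pk : Pkgs11) (htrans : PkgTrans11.{u}) (hcyc : PkgCyc11) (g : ℕ)
    (ho : orderOf (pm g) = 11) (hP : P [g]) {α : Type u} [Fintype α] [DecidableEq α]
    (hα : Fintype.card α = 11) (G : Subgroup (Equiv.Perm α)) [MulAction.IsPretransitive G α]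
    (hG : ¬ Group.IsSolvable G) (hA : ¬ alternatingGroup α ≤ G) :
    (MulAction.IsMultiplyPretransitive G α 4 ∧
        ∀ x : Fin 4 ↪ α, MulAction.stabilizer G x = ⊥) ∨
      Nonempty (G ≃* Matrix.ProjectiveSpecialLinearGroup (Fin 2) (ZMod 11)) := by
  apply htrans ?_ α hα G hG hA
  intro H htr hns hna
  obtain ⟨c, hc⟩ := hcyc H htr (pm g) ho
  have h1 : Good11 (cj H c) := hP (cj H c) (by
    intro x hx
    rw [List.mem_singleton] at hx
    rw [hx, mem_cj]
    exact hc)
  have h2 : Good11 H := pk.conj H c h1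
  rcases h2 with h | h | h | h
  · exact absurd h hns
  · exact absurd h hna
  · exact Or.inl h
  · exact Or.inr h

end Cfsg.Agent.Lib.Helper98.S11
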